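-- PHYP (S5974), regime T2E, package [NECELT]: an involution of a-type in Omega^+_{2d}(q), q even,
-- d even, all of whose fixed vectors are singular.
import Cfsg.Agent.Lib.Helper12.PHyp.T2EDefs
import Cfsg.Agent.Lib.Helper99.NsPlus

set_option autoImplicit false

namespace Cfsg.Agent.Lib.Helper29.PHyp

open Matrix

universe u

/-- **[NECELT]** -/
theorem pkgNecElt : Cfsg.Agent.Lib.Helper12.PHyp.PkgNecElt.{u} := by
  intro F _ _ h2 d hd hev
  obtain ⟨x, hxΩ, hx2, hiso, hfix⟩ :=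
    Cfsg.Agent.Lib.Helper99.nsp_witness_two h2 d (by omega) hev
  have hxx : (x : Matrix (Fin d ⊕ Fin d) (Fin d ⊕ Fin d) F) *
      (x : Matrix (Fin d ⊕ Fin d) (Fin d ⊕ Fin d) F) = 1 := by
    rw [Units.val_pow_eq_pow_val, pow_two] at hx2
    exact hx2
  refine ⟨x, hxΩ, hxx, ?_, ?_, hfix⟩
  · intro h1
    have h0 : 0 < d := by omega
    obtain ⟨v, hv⟩ : ∃ v : Fin d ⊕ Fin d → F, v = fun i =>
        Sum.elim (fun j : Fin d => if j = ⟨0, h0⟩ then (1 : F) else 0)
          (fun j : Fin d => if j = ⟨0, h0⟩ then (1 : F) else 0) i := ⟨_, rfl⟩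
    have h3 := hfix v (by rw [h1]; simp)
    have hq : Cfsg.quadFormPlus d F v = 1 := by
      unfold Cfsg.quadFormPlus
      rw [hv]
      simp
    rw [hq] at h3
    exact one_ne_zero h3
  · intro v _
    unfold QuadraticMap.polar
    have hfixed : (x : Matrix (Fin d ⊕ Fin d) (Fin d ⊕ Fin d) F) *ᵥ
        (v + (x : Matrix (Fin d ⊕ Fin d) (Fin d ⊕ Fin d) F) *ᵥ v) =
        v + (x : Matrix (Fin d ⊕ Fin d) (Fin d ⊕ Fin d) F) *ᵥ v := by
      rw [Matrix.mulVec_add, Matrix.mulVec_mulVec, hxx, Matrix.one_mulVec, add_comm]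
    rw [hfix _ hfixed, hiso v]
    have h4 : Cfsg.quadFormPlus d F v + Cfsg.quadFormPlus d F v = 0 := by
      rw [← two_mul, h2, zero_mul]
    linear_combination -h4

end Cfsg.Agent.Lib.Helper29.PHyp
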